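import Cfsg.Agent.Lib.SolvStruct.Basic
import Mathlib.GroupTheory.Sylow

/-!
Factorizations `G = H K`: the index criterion, and Sylow subgroups of factorized groups.
-/

set_option autoImplicit false

namespace Cfsg.Agent.Lib.SolvStruct.Fact

open Subgroup Cfsg.Agent.Lib.SolvStruct.Basic
open scoped Pointwise

/-- If `[G : K] ≤ [H : H ∩ K]` then `G = H K`. -/
theorem forall_mul_of_index_le {G : Type*} [Group G] [Finite G] (H K : Subgroup G)
    (h : K.index ≤ K.relIndex H) (g : G) : ∃ a ∈ H, ∃ b ∈ K, g = a * b := by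
  classical
  let φ : H ⧸ K.subgroupOf H → G ⧸ K :=
    Quotient.lift (fun a : H => ((a : G) : G ⧸ K)) (by
      intro a b hab
      have hab' : a⁻¹ * b ∈ K.subgroupOf H := QuotientGroup.leftRel_apply.mp hab
      rw [Subgroup.mem_subgroupOf] at hab'
      exact QuotientGroup.eq.mpr (by simpa using hab'))
  have hinj : Function.Injective φ := by
    intro x y
    induction x using QuotientGroup.induction_on with
    | H a =>
      induction y using QuotientGroup.induction_on with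
      | H b =>
        intro hxy
        have h1 : (a : G)⁻¹ * (b : G) ∈ K := QuotientGroup.eq.mp hxy
        exact QuotientGroup.eq.mpr (by
          rw [Subgroup.mem_subgroupOf]
          simpa using h1)
  have hbij : Function.Bijective φ := by
    refine hinj.bijective_of_nat_card_le ?_
    exact h
  obtain ⟨x, hx⟩ := hbij.2 (g : G ⧸ K)
  induction x using QuotientGroup.induction_on with
  | H a =>
    have h1 : ((a : G) : G ⧸ K) = (g : G ⧸ K) := hx
    have h2 : (a : G)⁻¹ * g ∈ K := QuotientGroup.eq.mp h1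
    exact ⟨a, a.2, (a : G)⁻¹ * g, h2, by group⟩

variable {G : Type*} [Group G] [Finite G]

/-- In a factorized group `G = H K` there is a Sylow subgroup meeting both factors in Sylow
subgroups. -/
theorem exists_sylow_inf (H K : Subgroup G) (hHK : ∀ g : G, ∃ h ∈ H, ∃ k ∈ K, g = h * k)
    (p : ℕ) [Fact p.Prime] :
    ∃ (R : Sylow p G) (P : Sylow p H) (Q : Sylow p K),
      (P : Subgroup H) = (R : Subgroup G).subgroupOf H ∧
        (Q : Subgroup K) = (R : Subgroup G).subgroupOf K := by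
  obtain ⟨P₀⟩ : Nonempty (Sylow p H) := inferInstance
  obtain ⟨Q₀⟩ : Nonempty (Sylow p K) := inferInstance
  have hP₀ : IsPGroup p ((P₀ : Subgroup H).map H.subtype) := P₀.isPGroup'.map _
  have hQ₀ : IsPGroup p ((Q₀ : Subgroup K).map K.subtype) := Q₀.isPGroup'.map _
  obtain ⟨S₁, hS₁⟩ := hP₀.exists_le_sylow
  obtain ⟨S₂, hS₂⟩ := hQ₀.exists_le_sylow
  obtain ⟨x, hx⟩ := MulAction.exists_smul_eq G S₁ S₂
  obtain ⟨h₀, hh₀, k₀, hk₀, hx₀⟩ := hHK x⁻¹
  have hxe : x = k₀⁻¹ * h₀⁻¹ := by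
    have : x = (x⁻¹)⁻¹ := by group
    rw [this, hx₀]; group
  -- the Sylow subgroup
  let R : Sylow p G := h₀⁻¹ • S₁
  have hR₁ : ∀ y : G, y ∈ (S₁ : Subgroup G) → h₀⁻¹ * y * h₀ ∈ (R : Subgroup G) := by
    intro y hy
    have : h₀⁻¹ * y * h₀ ∈ MulAut.conj h₀⁻¹ • (S₁ : Subgroup G) := by
      rw [Subgroup.mem_pointwise_smul_iff_inv_smul_mem]
      simpa [MulAut.smul_def, mul_assoc] using hy
    exact this
  have hRS₂ : k₀⁻¹ • R = S₂ := by
    rw [← hx, hxe, mul_smul]
  have hR₂ : ∀ y : G, y ∈ (S₂ : Subgroup G) → k₀ * y * k₀⁻¹ ∈ (R : Subgroup G) := by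
    intro y hy
    rw [← hRS₂] at hy
    have hy' : y ∈ MulAut.conj k₀⁻¹ • (R : Subgroup G) := hy
    rw [Subgroup.mem_pointwise_smul_iff_inv_smul_mem] at hy'
    simpa [MulAut.smul_def, mul_assoc] using hy'
  let h' : H := ⟨h₀⁻¹, H.inv_mem hh₀⟩
  let k' : K := ⟨k₀, hk₀⟩
  let P₁ : Sylow p H := h' • P₀
  let Q₁ : Sylow p K := k' • Q₀
  have hP₁ : (P₁ : Subgroup H) ≤ (R : Subgroup G).subgroupOf H := by
    intro y hy
    have hy' : y ∈ MulAut.conj h' • (P₀ : Subgroup H) := hy
    rw [Subgroup.mem_pointwise_smul_iff_inv_smul_mem] at hy'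
    have h1 : (MulAut.conj h')⁻¹ • y ∈ (P₀ : Subgroup H) := hy'
    have h2 : (((MulAut.conj h')⁻¹ • y : H) : G) ∈ (S₁ : Subgroup G) := hS₁ ⟨_, h1, rfl⟩
    have h3 := hR₁ _ h2
    rw [Subgroup.mem_subgroupOf]
    have h4 : h₀⁻¹ * (((MulAut.conj h')⁻¹ • y : H) : G) * h₀ = (y : G) := by
      simp [MulAut.smul_def, h', mul_assoc]
    rwa [h4] at h3
  have hQ₁ : (Q₁ : Subgroup K) ≤ (R : Subgroup G).subgroupOf K := by
    intro y hy
    have hy' : y ∈ MulAut.conj k' • (Q₀ : Subgroup K) := hy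
    rw [Subgroup.mem_pointwise_smul_iff_inv_smul_mem] at hy'
    have h1 : (MulAut.conj k')⁻¹ • y ∈ (Q₀ : Subgroup K) := hy'
    have h2 : (((MulAut.conj k')⁻¹ • y : K) : G) ∈ (S₂ : Subgroup G) := hS₂ ⟨_, h1, rfl⟩
    have h3 := hR₂ _ h2
    rw [Subgroup.mem_subgroupOf]
    have h4 : k₀ * (((MulAut.conj k')⁻¹ • y : K) : G) * k₀⁻¹ = (y : G) := by
      simp [MulAut.smul_def, k', mul_assoc]
    rwa [h4] at h3
  refine ⟨R, P₁, Q₁, ?_, ?_⟩
  · exact (P₁.is_maximal' (R.isPGroup'.comap_subtype) hP₁).symm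
  · exact (Q₁.is_maximal' (R.isPGroup'.comap_subtype) hQ₁).symm

/-- If `G = H K` and the Sylow subgroup `R` of `G` meets `H` and `K` in Sylow subgroups, then
`R = (R ∩ H)(R ∩ K)`. -/
theorem sylow_eq_mul_of_inf (H K : Subgroup G) (hHK : ∀ g : G, ∃ h ∈ H, ∃ k ∈ K, g = h * k)
    (p : ℕ) [hp : Fact p.Prime] (R : Sylow p G) (P : Sylow p H) (Q : Sylow p K)
    (hP : (P : Subgroup H) = (R : Subgroup G).subgroupOf H)
    (hQ : (Q : Subgroup K) = (R : Subgroup G).subgroupOf K) (r : G) (hr : r ∈ (R : Subgroup G)) :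
    ∃ a ∈ (R : Subgroup G) ⊓ H, ∃ b ∈ (R : Subgroup G) ⊓ K, r = a * b := by
  have hp' := hp.out
  -- work inside `R`
  let P' : Subgroup (R : Subgroup G) := H.subgroupOf R
  let Q' : Subgroup (R : Subgroup G) := K.subgroupOf R
  have hcP : Nat.card P' = p ^ (Nat.card H).factorization p := by
    rw [← P.card_eq_multiplicity, hP, card_subgroupOf, card_subgroupOf, inf_comm]
  have hcQ : Nat.card Q' = p ^ (Nat.card K).factorization p := by
    rw [← Q.card_eq_multiplicity, hQ, card_subgroupOf, card_subgroupOf, inf_comm]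
  have hcR : Nat.card R = p ^ (Nat.card G).factorization p := R.card_eq_multiplicity
  have hcard := card_mul_card_inf_of_forall_mul H K hHK
  have hfac : (Nat.card G).factorization p + (Nat.card ↥(H ⊓ K)).factorization p
      = (Nat.card H).factorization p + (Nat.card K).factorization p := by
    have h1 : (Nat.card G * Nat.card ↥(H ⊓ K)).factorization p = (Nat.card H * Nat.card K).factorization p := by
      rw [hcard]
    rw [Nat.factorization_mul Nat.card_pos.ne' Nat.card_pos.ne',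
      Nat.factorization_mul Nat.card_pos.ne' Nat.card_pos.ne'] at h1
    exact h1
  -- the intersection
  have hinf : IsPGroup p ↥(Q'.subgroupOf P') := by
    have h0 : IsPGroup p (R : Subgroup G) := R.isPGroup'
    have h1 : IsPGroup p Q' := IsPGroup.to_subgroup h0 Q'
    exact h1.comap_subtype
  obtain ⟨e, he⟩ := IsPGroup.iff_card.mp hinf
  have hed : p ^ e ∣ Nat.card ↥(H ⊓ K) := by
    rw [← he, card_subgroupOf]
    let f : ↥(P' ⊓ Q') →* ↥(H ⊓ K) :=
      { toFun := fun x => ⟨((x : (R : Subgroup G)) : G), ⟨x.2.1, x.2.2⟩⟩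
        map_one' := rfl
        map_mul' := fun _ _ => rfl }
    have hf : Function.Injective f := fun x y hxy => by
      apply Subtype.ext; apply Subtype.ext
      exact congrArg (fun z : ↥(H ⊓ K) => (z : G)) hxy
    exact Subgroup.card_dvd_of_injective f hf
  have hele : e ≤ (Nat.card ↥(H ⊓ K)).factorization p :=
    (hp'.pow_dvd_iff_le_factorization Nat.card_pos.ne').mp hed
  have h1 := Q'.card_mul_index
  have h2 := (Q'.subgroupOf P').card_mul_index
  rw [he, hcP] at h2
  rw [hcQ, hcR] at h1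
  have hle : Q'.index ≤ Q'.relIndex P' := by
    have h3 : Q'.relIndex P' = (Q'.subgroupOf P').index := rfl
    rw [h3]
    set i := Q'.index
    set j := (Q'.subgroupOf P').index
    have hdd := Nat.exists_eq_add_of_le hele
    obtain ⟨t, ht⟩ := hdd
    have h4 : p ^ (Nat.card K).factorization p * i * p ^ (Nat.card ↥(H ⊓ K)).factorization p
        = p ^ (Nat.card K).factorization p * (p ^ e * j) := by
      rw [h1, h2, ← pow_add, ← pow_add, hfac, add_comm]
    have hq : 0 < p ^ (Nat.card K).factorization p := pow_pos hp'.pos _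
    have h5 : i * p ^ (Nat.card ↥(H ⊓ K)).factorization p = p ^ e * j := by
      apply Nat.eq_of_mul_eq_mul_left hq
      rw [← h4]; ring
    rw [ht, pow_add] at h5
    have hqe : 0 < p ^ e := pow_pos hp'.pos _
    have h6 : i * p ^ t = j := by
      apply Nat.eq_of_mul_eq_mul_left hqe
      rw [← h5]; ring
    rw [← h6]
    exact Nat.le_mul_of_pos_right _ (pow_pos hp'.pos _)
  obtain ⟨a, ha, b, hb, hab⟩ := forall_mul_of_index_le P' Q' hle ⟨r, hr⟩
  refine ⟨a, ⟨a.2, ha⟩, b, ⟨b.2, hb⟩, ?_⟩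
  exact congrArg Subtype.val hab

end Cfsg.Agent.Lib.SolvStruct.Fact
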