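import Mathlib

/-!
Elements of a finite group acting on a normal elementary abelian subgroup: eigenvectors,
power maps on normal subgroups of prime order.
-/

set_option autoImplicit false

namespace Cfsg.Agent.Lib.SolvStruct.Huppert1

open Polynomial Subgroup

/-- An endomorphism with `T ^ p = T` of a nonzero vector space over `𝔽_p` has an eigenvector. -/
theorem exists_eigen {p : ℕ} [hp : Fact p.Prime] {V : Type*} [AddCommGroup V] [Module (ZMod p) V]
    [Finite V] [Nontrivial V] (T : Module.End (ZMod p) V) (hT : T ^ p = T) :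
    ∃ v, v ≠ 0 ∧ ∃ μ : ZMod p, T v = μ • v := by
  haveI : FiniteDimensional (ZMod p) V := Module.Finite.of_finite
  have hint : IsIntegral (ZMod p) T := Algebra.IsIntegral.isIntegral T
  have hdvd : minpoly (ZMod p) T ∣ (X ^ p - X : (ZMod p)[X]) := minpoly.dvd _ _ (by simp [hT])
  have hsplit : (X ^ p - X : (ZMod p)[X]).Splits := by
    rw [Polynomial.splits_iff_card_roots]
    have h := FiniteField.roots_X_pow_card_sub_X (ZMod p)
    rw [ZMod.card p] at h
    rw [h, FiniteField.X_pow_card_sub_X_natDegree_eq (ZMod p) hp.out.one_lt]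
    simp [ZMod.card p]
  have hq : (minpoly (ZMod p) T).Splits :=
    hsplit.of_dvd (FiniteField.X_pow_card_sub_X_ne_zero (ZMod p) hp.out.one_lt) hdvd
  have hdeg : (minpoly (ZMod p) T).degree ≠ 0 := (minpoly.degree_pos hint).ne'
  obtain ⟨μ, hμ⟩ := hq.exists_eval_eq_zero hdeg
  have hev : T.HasEigenvalue μ := Module.End.hasEigenvalue_of_isRoot hμ
  obtain ⟨v, hv⟩ := hev.exists_hasEigenvector
  exact ⟨v, hv.2, μ, hv.apply_eq_smul⟩

variable {G : Type*} [Group G]

theorem exists_eigen_add' {p : ℕ} [hp : Fact p.Prime] {V : Type*} [AddCommGroup V] [Module (ZMod p) V]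
    [Finite V] [Nontrivial V] (ψ : V →+ V) (hψ : ∀ v, ψ^[p] v = ψ v) :
    ∃ v, v ≠ 0 ∧ ∃ k : ℕ, ψ v = k • v := by
  let T : Module.End (ZMod p) V := ψ.toZModLinearMap p
  have hT : T ^ p = T := by
    ext v
    rw [Module.End.pow_apply]
    exact hψ v
  obtain ⟨v, hv, μ, hμ⟩ := exists_eigen T hT
  refine ⟨v, hv, μ.val, ?_⟩
  have h1 : T v = (μ.val) • v := by
    rw [hμ]
    conv_lhs => rw [← ZMod.natCast_zmod_val μ]
    exact Nat.cast_smul_eq_nsmul (ZMod p) _ _
  exact h1

/-- Additive form of the eigenvector lemma. -/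
theorem exists_eigen_add {p : ℕ} [hp : Fact p.Prime] {V : Type*} [AddCommGroup V] [Finite V]
    [Nontrivial V] (hexp : ∀ v : V, p • v = 0) (ψ : V →+ V) (hψ : ∀ v, ψ^[p] v = ψ v) :
    ∃ v, v ≠ 0 ∧ ∃ k : ℕ, ψ v = k • v := by
  letI hmod : Module (ZMod p) V := AddCommGroup.zmodModule hexp
  exact exists_eigen_add' ψ hψ

/-- Group form of the eigenvector lemma. -/
theorem exists_eigen_group [Finite G] {p : ℕ} [hp : Fact p.Prime] (N : Subgroup G) [hNn : N.Normal]
    (hc : ∀ a ∈ N, ∀ b ∈ N, a * b = b * a) (hexp : ∀ a ∈ N, a ^ p = 1) (hN : N ≠ ⊥) (x : G)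
    (hx : ∀ v ∈ N, x ^ p * v * (x ^ p)⁻¹ = x * v * x⁻¹) :
    ∃ v ∈ N, v ≠ 1 ∧ ∃ k : ℕ, x * v * x⁻¹ = v ^ k := by
  letI : CommGroup N :=
    { (inferInstance : Group N) with mul_comm := fun a b => Subtype.ext (hc _ a.2 _ b.2) }
  have hexp' : ∀ v : Additive N, p • v = 0 := by
    intro v
    apply Additive.toMul.injective
    apply Subtype.ext
    have h1 : ((p • v : Additive N).toMul : N) = (v.toMul) ^ p := rfl
    rw [h1]
    simpa using hexp _ (v.toMul).2
  let φ : N →* N := (MulAut.conjNormal x : MulAut N).toMonoidHom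
  let ψ : Additive N →+ Additive N := φ.toAdditive
  have hTn : ∀ (n : ℕ) (v : N), ((ψ^[n]) (Additive.ofMul v)).toMul = (MulAut.conjNormal (x ^ n) : MulAut N) v := by
    intro n v
    induction n with
    | zero => simp
    | succ n ih =>
      rw [Function.iterate_succ_apply', pow_succ', map_mul, MulAut.mul_apply, ← ih]
      rfl
  have hT : ∀ v, ψ^[p] v = ψ v := by
    intro v
    have h1 := hTn p v.toMul
    apply Additive.toMul.injective
    have h2 : Additive.ofMul v.toMul = v := rfl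
    rw [h2] at h1
    rw [h1]
    apply Subtype.ext
    rw [MulAut.conjNormal_apply]
    rw [hx _ (v.toMul).2]
    rfl
  haveI : Nontrivial (Additive N) := by
    have : Nontrivial N := (Subgroup.nontrivial_iff_ne_bot N).mpr hN
    exact (inferInstance : Nontrivial (Additive N))
  obtain ⟨v, hv, k, hk⟩ := exists_eigen_add hexp' ψ hT
  refine ⟨(v.toMul : N), (v.toMul).2, ?_, k, ?_⟩
  · intro h
    apply hv
    apply Additive.toMul.injective
    exact Subtype.ext h
  · have h2 : ((ψ v).toMul : N) = (v.toMul) ^ k := by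
      rw [hk]; rfl
    have h3 : ((ψ v).toMul : G) = x * (v.toMul : N) * x⁻¹ := rfl
    rw [← h3, h2]
    rfl

/-- In a normal subgroup of prime order, elements of the group act by power maps. -/
theorem exists_power_of_card_prime [Finite G] {p : ℕ} (hp : p.Prime) (U : Subgroup G) [hUn : U.Normal]
    (hU : Nat.card U = p) (x : G) : ∃ k : ℕ, (∀ v ∈ U, x * v * x⁻¹ = v ^ k) ∧ ¬ p ∣ k := by
  haveI : Fact p.Prime := ⟨hp⟩
  haveI : Nontrivial U := by
    rw [← Finite.one_lt_card_iff_nontrivial, hU]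
    exact hp.one_lt
  obtain ⟨⟨u, huU⟩, hu1⟩ := exists_ne (1 : U)
  have hu1' : u ≠ 1 := fun h => hu1 (Subtype.ext h)
  have hupow : u ^ p = 1 := by
    have h1 := pow_card_eq_one' (x := (⟨u, huU⟩ : U))
    rw [hU] at h1
    simpa using congrArg Subtype.val h1
  have hord : orderOf u = p := orderOf_eq_prime hupow hu1'
  have hz : zpowers u = U := by
    apply Subgroup.eq_of_le_of_card_ge ((zpowers_le).mpr huU)
    rw [Nat.card_zpowers, hord, hU]
  have hpw : ∀ v ∈ U, ∃ j : ℕ, u ^ j = v := by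
    intro v hv
    rw [← hz] at hv
    have h1 : v ∈ Submonoid.powers u := mem_powers_iff_mem_zpowers.mpr hv
    exact Submonoid.mem_powers_iff _ _ |>.mp h1
  obtain ⟨k, hk⟩ := hpw _ (hUn.conj_mem u huU x)
  refine ⟨k, ?_, ?_⟩
  · intro v hv
    obtain ⟨j, rfl⟩ := hpw v hv
    rw [← conj_pow, ← hk, pow_right_comm]
  · intro hd
    have h1 : u ^ k = 1 := by
      obtain ⟨m, rfl⟩ := hd
      rw [pow_mul, hupow, one_pow]
    rw [h1] at hk
    exact hu1' (by simpa using hk.symm)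

/-- An element acting on a subgroup of exponent `p` by a power map prime to `p`: its `(p-1)`-st
power acts trivially. -/
theorem pow_sub_one_centralizes {p : ℕ} (hp : p.Prime) (U : Subgroup G) (hexp : ∀ v ∈ U, v ^ p = 1)
    (x : G) (k : ℕ) (hk : ∀ v ∈ U, x * v * x⁻¹ = v ^ k) (hpk : ¬ p ∣ k) (v : G) (hv : v ∈ U) :
    x ^ (p - 1) * v * (x ^ (p - 1))⁻¹ = v := by
  have hpow : ∀ (n : ℕ), ∀ v ∈ U, x ^ n * v * (x ^ n)⁻¹ = v ^ (k ^ n) := by
    intro n
    induction n with
    | zero => intro v _; simp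
    | succ n ih =>
      intro v hv
      have h1 : x ^ (n + 1) * v * (x ^ (n + 1))⁻¹ = x * (x ^ n * v * (x ^ n)⁻¹) * x⁻¹ := by
        rw [pow_succ']; group
      rw [h1, ih v hv, ← conj_pow, hk v hv, ← pow_mul, pow_succ']
  rw [hpow (p - 1) v hv]
  haveI : Fact p.Prime := ⟨hp⟩
  have hz : ((k : ZMod p)) ≠ 0 := by
    rwa [Ne, ZMod.natCast_eq_zero_iff]
  have h1 : ((k ^ (p - 1) : ℕ) : ZMod p) = ((1 : ℕ) : ZMod p) := by
    push_cast
    exact ZMod.pow_card_sub_one_eq_one hz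
  have h2 : k ^ (p - 1) ≡ 1 [MOD p] := (ZMod.natCast_eq_natCast_iff _ _ _).mp h1
  have h3 : orderOf v ∣ p := orderOf_dvd_of_pow_eq_one (hexp v hv)
  have h4 : k ^ (p - 1) ≡ 1 [MOD orderOf v] := h2.of_dvd h3
  have h5 := (pow_eq_pow_iff_modEq (x := v)).mpr h4
  rw [h5, pow_one]

open scoped commutatorElement in
/-- Two elements acting by power maps: their commutator acts trivially. -/
theorem commutator_centralizes (U : Subgroup G) [hUn : U.Normal] (x y : G) (k l : ℕ)
    (hk : ∀ v ∈ U, x * v * x⁻¹ = v ^ k) (hl : ∀ v ∈ U, y * v * y⁻¹ = v ^ l) (v : G) (hv : v ∈ U) :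
    ⁅x, y⁆ * v * (⁅x, y⁆)⁻¹ = v := by
  set w := (y * x)⁻¹ * v * (y * x) with hw
  have hwU : w ∈ U := by
    have := hUn.conj_mem v hv (y * x)⁻¹
    simpa [hw] using this
  have h1 : (x * y) * w * (x * y)⁻¹ = w ^ (l * k) := by
    have : (x * y) * w * (x * y)⁻¹ = x * (y * w * y⁻¹) * x⁻¹ := by group
    rw [this, hl w hwU, ← conj_pow, hk w hwU, ← pow_mul, mul_comm]
  have h2 : (y * x) * w * (y * x)⁻¹ = w ^ (k * l) := by
    have : (y * x) * w * (y * x)⁻¹ = y * (x * w * x⁻¹) * y⁻¹ := by group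
    rw [this, hk w hwU, ← conj_pow, hl w hwU, ← pow_mul, mul_comm]
  have h3 : (y * x) * w * (y * x)⁻¹ = v := by
    rw [hw]; group
  have h4 : ⁅x, y⁆ * v * (⁅x, y⁆)⁻¹ = (x * y) * w * (x * y)⁻¹ := by
    rw [hw, commutatorElement_def]; group
  rw [h4, h1, mul_comm, ← h2, h3]

end Cfsg.Agent.Lib.SolvStruct.Huppert1
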