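import Cfsg.Agent.S0029
import Cfsg.Agent.S0580
import Cfsg.Agent.Lib.Coprime.Bridge
import Cfsg.Agent.Lib.PGroups.Basic
import Cfsg.Agent.Lib.Solvable.Basic
import Cfsg.Agent.Lib.Solvable.Hall
import Cfsg.Agent.Lib.SolvStruct.Super3
import Cfsg.Agent.Lib.SolvStruct.Huppert1
import Cfsg.Agent.Lib.SolvStruct.Schmidt
import Cfsg.Agent.Lib.SolvStruct.Clt

set_option autoImplicit false

namespace Cfsg.Agent.Lib.SolvStruct.Huppert2

open Subgroup Cfsg.Agent.Lib.SolvStruct.Basic Cfsg.Agent.Lib.SolvStruct.Huppert1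
open Cfsg.Agent.Lib.Solvable.Basic
open scoped commutatorElement Pointwise

variable {G : Type*} [Group G] [Finite G]

/-- Step 1: a maximal `G`-invariant subgroup of `P` above `F` has index `p` in `P`. -/
theorem card_eq_of_max (h : ∀ M : Subgroup G, IsCoatom M → M.index.Prime) {p : ℕ} (hp : p.Prime)
    {PP H F M : Subgroup G} (hPp : IsPGroup p PP)
    (hfac : ∀ g : G, ∃ a ∈ PP, ∃ b ∈ H, g = a * b) (hPH : PP ⊓ H = ⊥)
    (hcardG : Nat.card PP * Nat.card H = Nat.card G) (hFle : F ≤ PP)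
    (hnormal_of : ∀ M' : Subgroup G, F ≤ M' → M' ≤ PP → (∀ b ∈ H, ∀ m ∈ M', b * m * b⁻¹ ∈ M') →
      M'.Normal) [PP.Normal] [hMn : M.Normal] (hFM : F ≤ M) (hMlt : M < PP)
    (hmax : ∀ M' : Subgroup G, M'.Normal → M ≤ M' → M' ≤ PP → M' = M ∨ M' = PP) :
    Nat.card PP = p * Nat.card M := by
  classical
  have hMPP : M ≤ PP := hMlt.le
  set W : Subgroup G := H ⊔ M with hW
  have hHM : H ⊓ M = ⊥ := by
    rw [eq_bot_iff, ← hPH, inf_comm]
    exact inf_le_inf_right _ hMPP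
  have hWcard : Nat.card W = Nat.card H * Nat.card M := by
    have h1 := Cfsg.Agent.Lib.Solvable.Hall.card_sup_mul_card_inf H M
    rw [hHM] at h1
    simpa using h1
  have hHpos : 0 < Nat.card H := Nat.card_pos
  have hMpos : 0 < Nat.card M := Nat.card_pos
  have hlt : Nat.card M < Nat.card PP := Cfsg.Agent.Lib.PGroups.Basic.card_lt_of_lt hMlt
  have hcoat : IsCoatom W := by
    refine ⟨?_, ?_⟩
    · intro hWt
      have h1 : Nat.card W = Nat.card G := by
        rw [hWt]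
        exact Subgroup.card_top
      rw [hWcard, ← hcardG, mul_comm] at h1
      have h2 := Nat.eq_of_mul_eq_mul_right hHpos h1
      omega
    · intro W' hWW'
      set M' : Subgroup G := W' ⊓ PP with hM'
      have hMM' : M ≤ M' := le_inf ((le_sup_right).trans hWW'.le) hMPP
      have hHW' : H ≤ W' := (le_sup_left).trans hWW'.le
      have hM'n : M'.Normal := by
        apply hnormal_of M' (hFM.trans hMM') inf_le_right
        intro b hb m hm
        refine ⟨W'.mul_mem (W'.mul_mem (hHW' hb) hm.1) (W'.inv_mem (hHW' hb)), ?_⟩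
        exact (inferInstance : PP.Normal).conj_mem m hm.2 b
      rcases hmax M' hM'n hMM' inf_le_right with h1 | h1
      · exfalso
        apply hWW'.not_ge
        intro g hg
        obtain ⟨a, ha, b, hb, rfl⟩ := hfac g
        have haW' : a ∈ W' := by
          have := W'.mul_mem hg (W'.inv_mem (hHW' hb))
          simpa using this
        have haM : a ∈ M := by
          rw [← h1]
          exact ⟨haW', ha⟩
        exact W.mul_mem ((le_sup_right : M ≤ W) haM) ((le_sup_left : H ≤ W) hb)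
      · rw [eq_top_iff]
        intro g _
        obtain ⟨a, ha, b, hb, rfl⟩ := hfac g
        have haW' : a ∈ W' := by
          have : a ∈ M' := by rw [h1]; exact ha
          exact this.1
        exact W'.mul_mem haW' (hHW' hb)
  have hq := h W hcoat
  have h1 : W.index * Nat.card W = Nat.card G := W.index_mul_card
  rw [hWcard, ← hcardG] at h1
  have h2 : W.index * Nat.card M = Nat.card PP := by
    apply Nat.eq_of_mul_eq_mul_right hHpos
    rw [← h1]
    ring
  have h3 : W.index ∣ Nat.card PP := ⟨_, h2.symm⟩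
  haveI : Fact p.Prime := ⟨hp⟩
  obtain ⟨a, ha⟩ := IsPGroup.iff_card.mp hPp
  rw [ha] at h3
  have h4 : W.index = p := (Nat.prime_dvd_prime_iff_eq hq hp).mp (hq.dvd_of_dvd_pow h3)
  rw [← h2, h4]

/-- Step 2: the action on a section of order `p`. -/
theorem conj_mem_of_max {p : ℕ} (hp : p.Prime) {PP M : Subgroup G} [hPn : PP.Normal] [hMn : M.Normal]
    (hMPP : M ≤ PP) (hcard : Nat.card PP = p * Nat.card M) (x y u : G) (hu : u ∈ PP) :
    x ^ (p - 1) * u * (x ^ (p - 1))⁻¹ * u⁻¹ ∈ M ∧ ⁅x, y⁆ * u * (⁅x, y⁆)⁻¹ * u⁻¹ ∈ M := by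
  classical
  set π := QuotientGroup.mk' M with hπ
  have hπs : Function.Surjective π := QuotientGroup.mk'_surjective M
  set U : Subgroup (G ⧸ M) := PP.map π with hU
  haveI hUn : U.Normal := Subgroup.Normal.map hPn π hπs
  have hUcard : Nat.card U = p := by
    have h1 := Cfsg.Agent.Lib.SolvStruct.Clt.card_map_mk_mul M PP
    rw [inf_eq_right.mpr hMPP, hcard] at h1
    exact Nat.eq_of_mul_eq_mul_right Nat.card_pos h1
  have hexp : ∀ v ∈ U, v ^ p = 1 := by
    intro v hv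
    have h1 := pow_card_eq_one' (x := (⟨v, hv⟩ : U))
    rw [hUcard] at h1
    simpa using congrArg Subtype.val h1
  obtain ⟨k, hk, hpk⟩ := exists_power_of_card_prime hp U hUcard (π x)
  obtain ⟨l, hl, -⟩ := exists_power_of_card_prime hp U hUcard (π y)
  have huU : π u ∈ U := ⟨u, hu, rfl⟩
  have h1 := pow_sub_one_centralizes hp U hexp (π x) k hk hpk (π u) huU
  have h2 := commutator_centralizes U (π x) (π y) k l hk hl (π u) huU
  constructor
  · rw [← QuotientGroup.ker_mk' M, MonoidHom.mem_ker]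
    change π _ = 1
    simp only [map_mul, map_inv, map_pow]
    rw [h1]
    simp
  · rw [← QuotientGroup.ker_mk' M, MonoidHom.mem_ker]
    change π _ = 1
    simp only [map_mul, map_inv, map_commutatorElement]
    rw [h2]
    simp

/-- Step 3: the intersection of the maximal invariant subgroups. -/
theorem mem_of_forall_max {p : ℕ} [hpf : Fact p.Prime] {PP H : Subgroup G} [hPn : PP.Normal]
    (hPp : IsPGroup p PP) (hcopHP : (Nat.card H).Coprime (Nat.card PP))
    {F : Subgroup G} (hF : F = (frattini ↥PP).map PP.subtype) [hFn : F.Normal]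
    (hnormal_of : ∀ M' : Subgroup G, F ≤ M' → M' ≤ PP → (∀ b ∈ H, ∀ m ∈ M', b * m * b⁻¹ ∈ M') →
      M'.Normal) (z : G) (hzP : z ∈ PP)
    (hz : ∀ M : Subgroup G, M.Normal → F ≤ M → M < PP →
      (∀ M' : Subgroup G, M'.Normal → M ≤ M' → M' ≤ PP → M' = M ∨ M' = PP) → z ∈ M) : z ∈ F := by
  classical
  let IsMax : Subgroup G → Prop := fun M => M.Normal ∧ F ≤ M ∧ M < PP ∧
    ∀ M' : Subgroup G, M'.Normal → M ≤ M' → M' ≤ PP → M' = M ∨ M' = PP
  set R : Subgroup G := PP ⊓ sInf {M | IsMax M} with hR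
  letI act : MulDistribMulAction H PP :=
    MulDistribMulAction.compHom PP ((MulAut.conjNormal (H := PP)).comp H.subtype)
  have hact : ∀ (a : H) (x : PP), ((a • x : PP) : G) = (a : G) * x * (a : G)⁻¹ := fun a x => rfl
  have hRconj : ∀ g : G, ∀ x ∈ R, g * x * g⁻¹ ∈ R := by
    intro g x hx
    refine Subgroup.mem_inf.mpr ⟨hPn.conj_mem x hx.1 g, Subgroup.mem_sInf.mpr ?_⟩
    intro M hM
    have hxM := (Subgroup.mem_sInf.mp hx.2) M hM
    exact hM.1.conj_mem x hxM g
  obtain ⟨C, hCinv, hFC, hCL, hCsup⟩ := Cfsg.Agent.Lib.Coprime.Bridge.exists_invariant_complement_frattini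
    (A := H) (G := PP) (p := p) hcopHP
    (fun x y => Cfsg.Agent.Lib.PGroups.Basic.commutator_le_frattini hPp
      (Subgroup.commutator_mem_commutator (Subgroup.mem_top _) (Subgroup.mem_top _)))
    (fun x => Cfsg.Agent.Lib.PGroups.Basic.pow_mem_frattini hPp x)
    (R.subgroupOf PP)
    (by
      intro a x hx
      rw [Subgroup.mem_subgroupOf] at hx ⊢
      rw [hact]
      exact hRconj _ _ hx)
  have hFPP : F ≤ PP := by
    rw [hF]
    rintro _ ⟨x, -, rfl⟩
    exact x.2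
  by_cases hCt : C = ⊤
  · subst hCt
    have hzR : z ∈ R := by
      refine Subgroup.mem_inf.mpr ⟨hzP, Subgroup.mem_sInf.mpr ?_⟩
      intro M hM
      exact hz M hM.1 hM.2.1 hM.2.2.1 hM.2.2.2
    have h1 : (⟨z, hzP⟩ : PP) ∈ (⊤ : Subgroup PP) ⊓ R.subgroupOf PP :=
      Subgroup.mem_inf.mpr ⟨Subgroup.mem_top _, Subgroup.mem_subgroupOf.mpr hzR⟩
    have h2 := hCL h1
    rw [hF]
    exact ⟨_, h2, rfl⟩
  · exfalso
    set C₁ : Subgroup G := C.map PP.subtype with hC₁
    have hFC₁ : F ≤ C₁ := by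
      rw [hF]
      exact Subgroup.map_mono hFC
    have hC₁P : C₁ ≤ PP := by
      rintro _ ⟨x, -, rfl⟩
      exact x.2
    have hC₁lt : C₁ < PP := by
      refine lt_of_le_of_ne hC₁P ?_
      intro he
      apply hCt
      rw [eq_top_iff]
      intro x _
      have : (x : G) ∈ C₁ := by rw [he]; exact x.2
      obtain ⟨y, hy, hyx⟩ := this
      have : y = x := Subtype.ext hyx
      rwa [← this]
    have hC₁n : C₁.Normal := by
      apply hnormal_of C₁ hFC₁ hC₁P
      rintro b hb _ ⟨m, hm, rfl⟩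
      exact ⟨(⟨b, hb⟩ : H) • m, hCinv _ _ hm, rfl⟩
    -- a maximal normal subgroup above `C₁`
    have hfin : {M : Subgroup G | M.Normal ∧ C₁ ≤ M ∧ M < PP}.Finite := Set.toFinite _
    obtain ⟨M, hC₁M, hMmax⟩ := hfin.exists_le_maximal (a := C₁) ⟨hC₁n, le_rfl, hC₁lt⟩
    have hMis : IsMax M := by
      refine ⟨hMmax.1.1, hFC₁.trans hC₁M, hMmax.1.2.2, ?_⟩
      intro M' hM'n hMM' hM'P
      by_cases he : M' = PP
      · exact Or.inr he
      · left
        have hlt' : M' < PP := lt_of_le_of_ne hM'P he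
        exact le_antisymm (hMmax.2 ⟨hM'n, hC₁M.trans hMM', hlt'⟩ hMM') hMM'
    have hRM : R ≤ M := inf_le_right.trans (sInf_le hMis)
    -- `C ⊔ L ≤ M`
    have hle : C ⊔ R.subgroupOf PP ≤ M.subgroupOf PP := by
      rw [sup_le_iff]
      constructor
      · intro x hx
        rw [Subgroup.mem_subgroupOf]
        exact hC₁M ⟨x, hx, rfl⟩
      · intro x hx
        rw [Subgroup.mem_subgroupOf] at hx ⊢
        exact hRM hx
    rw [hCsup] at hle
    apply hMmax.1.2.2.not_ge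
    intro x hx
    have h1 : (⟨x, hx⟩ : PP) ∈ M.subgroupOf PP := hle (Subgroup.mem_top _)
    exact h1

/-- Steps 6, 7: a minimal normal subgroup of exponent `p` on which `(p-1)`-st powers and commutators
act trivially has order `p`. -/
theorem card_eq_of_isMinNormal {p : ℕ} [hpf : Fact p.Prime] {N : Subgroup G} (hN : IsMinNormal N)
    (hc : ∀ a ∈ N, ∀ b ∈ N, a * b = b * a) (hexp : ∀ a ∈ N, a ^ p = 1)
    (h1 : ∀ x : G, ∀ v ∈ N, x ^ (p - 1) * v * (x ^ (p - 1))⁻¹ = v)
    (h2 : ∀ x y : G, ∀ v ∈ N, ⁅x, y⁆ * v * (⁅x, y⁆)⁻¹ = v) : Nat.card N = p := by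
  classical
  obtain ⟨hNn, hN1, hmin⟩ := hN
  have hp := hpf.out
  have hxpow : ∀ x : G, ∀ v ∈ N, x ^ p * v * (x ^ p)⁻¹ = x * v * x⁻¹ := by
    intro x v hv
    have e : x ^ p = x ^ (p - 1) * x := by
      rw [← pow_succ, Nat.sub_add_cancel hp.one_le]
    have h3 := h1 x _ (hNn.conj_mem v hv x)
    rw [e]
    calc x ^ (p - 1) * x * v * (x ^ (p - 1) * x)⁻¹
        = x ^ (p - 1) * (x * v * x⁻¹) * (x ^ (p - 1))⁻¹ := by group
      _ = _ := h3
  have hcomm : ∀ x g : G, ∀ v ∈ N, x * (g * v * g⁻¹) * x⁻¹ = g * (x * v * x⁻¹) * g⁻¹ := by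
    intro x g v hv
    have h3 := h2 x⁻¹ g⁻¹ v hv
    rw [commutatorElement_def] at h3
    calc x * (g * v * g⁻¹) * x⁻¹
        = g * x * (x⁻¹ * g⁻¹ * x⁻¹⁻¹ * g⁻¹⁻¹ * v * (x⁻¹ * g⁻¹ * x⁻¹⁻¹ * g⁻¹⁻¹)⁻¹) * x⁻¹ * g⁻¹ := by group
      _ = g * (x * v * x⁻¹) * g⁻¹ := by rw [h3]; group
  have hpowmap : ∀ x : G, ∃ k : ℕ, ∀ v ∈ N, x * v * x⁻¹ = v ^ k := by
    intro x
    obtain ⟨v₀, hv₀N, hv₀1, k, hk⟩ := exists_eigen_group N hc hexp hN1 x (hxpow x)
    refine ⟨k, ?_⟩
    let E : Subgroup G :=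
      { carrier := {v | v ∈ N ∧ x * v * x⁻¹ = v ^ k}
        mul_mem' := by
          rintro a b ⟨ha, ha'⟩ ⟨hb, hb'⟩
          refine ⟨N.mul_mem ha hb, ?_⟩
          have : x * (a * b) * x⁻¹ = (x * a * x⁻¹) * (x * b * x⁻¹) := by group
          rw [this, ha', hb']
          exact ((Commute.mul_pow (hc a ha b hb) k)).symm
        one_mem' := ⟨N.one_mem, by simp⟩
        inv_mem' := by
          rintro a ⟨ha, ha'⟩
          refine ⟨N.inv_mem ha, ?_⟩
          have : x * a⁻¹ * x⁻¹ = (x * a * x⁻¹)⁻¹ := by group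
          rw [this, ha', inv_pow] }
    have hEn : E.Normal := by
      constructor
      rintro v ⟨hv, hv'⟩ g
      refine ⟨hNn.conj_mem v hv g, ?_⟩
      rw [hcomm x g v hv, hv', conj_pow]
    rcases hmin E hEn (fun v hv => hv.1) with h | h
    · exfalso
      have : v₀ ∈ E := ⟨hv₀N, hk⟩
      rw [h] at this
      exact hv₀1 (Subgroup.mem_bot.mp this)
    · intro v hv
      rw [← h] at hv
      exact hv.2
  obtain ⟨v₁, hv₁N, hv₁1⟩ := (Subgroup.bot_or_exists_ne_one N).resolve_left hN1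
  have hz : (zpowers v₁).Normal := by
    constructor
    rintro _ ⟨j, rfl⟩ g
    obtain ⟨k, hk⟩ := hpowmap g
    change _ ∈ zpowers v₁
    have e : g * ((fun x => v₁ ^ x) j) * g⁻¹ = (g * v₁ * g⁻¹) ^ j := (conj_zpow).symm
    rw [e, hk v₁ hv₁N]
    exact zpow_mem (pow_mem (mem_zpowers _) _) _
  have hNeq : zpowers v₁ = N := by
    rcases hmin _ hz (zpowers_le.mpr hv₁N) with h | h
    · exact absurd (zpowers_eq_bot.mp h) hv₁1
    · exact h
  rw [← hNeq, Nat.card_zpowers]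
  exact orderOf_eq_prime (hexp _ hv₁N) hv₁1

end Cfsg.Agent.Lib.SolvStruct.Huppert2
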