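import Cfsg.Agent.S0029
import Cfsg.Agent.S0580
import Cfsg.Agent.Lib.Coprime.Bridge
import Cfsg.Agent.Lib.PGroups.Basic
import Cfsg.Agent.Lib.Solvable.Basic
import Cfsg.Agent.Lib.Solvable.Hall
import Cfsg.Agent.Lib.SolvStruct.Super3
import Cfsg.Agent.Lib.SolvStruct.Huppert1
import Cfsg.Agent.Lib.SolvStruct.Schmidt
import Cfsg.Agent.Lib.SolvStruct.Huppert2

/-!
Huppert's theorem: if every maximal subgroup of a finite group has prime index then the group is
supersolvable.
-/

set_option autoImplicit false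

namespace Cfsg.Agent.Lib.SolvStruct.Huppert

open Subgroup Cfsg.Agent.Lib.SolvStruct.Basic Cfsg.Agent.Lib.SolvStruct.Huppert1 Cfsg.Agent.Lib.SolvStruct.Huppert2
open Cfsg.Agent.Lib.Solvable.Basic Cfsg.Agent.Lib.SolvStruct.Super
open scoped commutatorElement Pointwise

variable {G : Type*} [Group G] [Finite G]

/-- The Sylow subgroup for the largest prime is normal. -/
theorem exists_sylow_normal (h : ∀ M : Subgroup G, IsCoatom M → M.index.Prime) [hnt : Nontrivial G] :
    ∃ p : ℕ, p.Prime ∧ p ∣ Nat.card G ∧ ∃ (_ : Fact p.Prime) (P : Sylow p G), (P : Subgroup G).Normal := by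
  have hne : (Nat.card G).primeFactors.Nonempty := by
    rw [Nat.nonempty_primeFactors]
    exact Finite.one_lt_card_iff_nontrivial.mpr hnt
  set p := (Nat.card G).primeFactors.max' hne with hp
  have hpmem : p ∈ (Nat.card G).primeFactors := Finset.max'_mem _ _
  have hpp : p.Prime := Nat.prime_of_mem_primeFactors hpmem
  haveI hf : Fact p.Prime := ⟨hpp⟩
  have hpG : p ∣ Nat.card G := Nat.dvd_of_mem_primeFactors hpmem
  have hmax : ∀ q : ℕ, q.Prime → q ∣ Nat.card G → q ≤ p := fun q hq hqd =>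
    Finset.le_max' _ _ (Nat.mem_primeFactors.mpr ⟨hq, hqd, Nat.card_pos.ne'⟩)
  obtain ⟨P⟩ : Nonempty (Sylow p G) := inferInstance
  refine ⟨p, hpp, hpG, hf, P, ?_⟩
  rw [← Subgroup.normalizer_eq_top_iff]
  by_contra hne
  obtain ⟨M, hM, hle⟩ := (eq_top_or_exists_le_coatom (normalizer ((P : Subgroup G) : Set G))).resolve_left hne
  have hPM : (P : Subgroup G) ≤ M := Subgroup.le_normalizer.trans hle
  let Q : Sylow p M := P.subtype hPM
  have h1 : Nat.card (Sylow p G) = (normalizer ((P : Subgroup G) : Set G)).index := Sylow.card_eq_index_normalizer P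
  have h2 : Nat.card (Sylow p M) = (normalizer ((P : Subgroup G) : Set G)).relIndex M := by
    have hQ : (Q : Subgroup M) = (P : Subgroup G).subgroupOf M := Sylow.coe_subtype _ _
    rw [Sylow.card_eq_index_normalizer Q, Subgroup.relIndex, Subgroup.subgroupOf_normalizer_eq hPM]
    change (normalizer ((Q : Subgroup M) : Set M)).index = _
    rw [hQ]
  have h3 := Subgroup.relIndex_mul_index hle
  rw [← h1, ← h2] at h3
  have h4 := card_sylow_modEq_one p G
  have h5 := card_sylow_modEq_one p M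
  have h6 : M.index ≡ 1 [MOD p] := by
    have h7 := h5.mul_right M.index
    rw [h3, one_mul] at h7
    exact h7.symm.trans h4
  have hq := h M hM
  have hqG : M.index ∣ Nat.card G := Subgroup.index_dvd_card M
  have hle' := hmax _ hq hqG
  have h1p : 1 < p := hpp.one_lt
  rcases eq_or_lt_of_le hle' with h8 | h8
  · rw [h8, Nat.ModEq, Nat.mod_self, Nat.mod_eq_of_lt h1p] at h6
    exact absurd h6 (by norm_num)
  · rw [Nat.ModEq, Nat.mod_eq_of_lt h8, Nat.mod_eq_of_lt h1p] at h6
    exact hq.one_lt.ne' h6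

/-- Existence of a normal subgroup of prime order. -/
theorem exists_normal_prime (h : ∀ M : Subgroup G, IsCoatom M → M.index.Prime) [Nontrivial G] :
    ∃ N : Subgroup G, N.Normal ∧ (Nat.card N).Prime := by
  classical
  haveI hsolv : Group.IsSolvable G := Cfsg.Agent.S0580.result h
  obtain ⟨p, hp, hpG, hpf, P, hPn⟩ := exists_sylow_normal h
  set PP : Subgroup G := (P : Subgroup G) with hPP
  haveI := hPn
  have hPp : IsPGroup p PP := P.isPGroup'
  have hPidx : ¬ p ∣ PP.index := P.not_dvd_index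
  have hcop : (Nat.card PP).Coprime PP.index := by
    obtain ⟨a, ha⟩ := IsPGroup.iff_card.mp hPp
    rw [ha]
    exact Nat.Coprime.pow_left a ((Nat.Prime.coprime_iff_not_dvd hp).mpr hPidx)
  obtain ⟨H, hH⟩ := Subgroup.exists_right_complement'_of_coprime hcop
  have hfac : ∀ g : G, ∃ a ∈ PP, ∃ b ∈ H, g = a * b := by
    intro g
    obtain ⟨⟨a, b⟩, hab⟩ := hH.2 g
    exact ⟨a, a.2, b, b.2, hab.symm⟩
  have hPH : PP ⊓ H = ⊥ := hH.disjoint.eq_bot
  have hcardG : Nat.card PP * Nat.card H = Nat.card G := hH.card_mul_card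
  have hcopHP : (Nat.card H).Coprime (Nat.card PP) := by
    rw [← hH.symm.index_eq_card]
    exact hcop.symm
  -- the Frattini subgroup of `P`
  set F : Subgroup G := (frattini ↥PP).map PP.subtype with hF
  haveI hFn : F.Normal := ConjAct.normal_of_characteristic_of_normal
  have hFle : F ≤ PP := by
    rintro _ ⟨x, -, rfl⟩
    exact x.2
  have hFcomm : ∀ a ∈ PP, ∀ b ∈ PP, a * b * a⁻¹ * b⁻¹ ∈ F := by
    intro a ha b hb
    have h1 := Cfsg.Agent.Lib.PGroups.Basic.commutator_le_frattini hPp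
    have h2 : ⁅(⟨a, ha⟩ : PP), (⟨b, hb⟩ : PP)⁆ ∈ commutator ↥PP :=
      Subgroup.commutator_mem_commutator (Subgroup.mem_top _) (Subgroup.mem_top _)
    exact ⟨_, h1 h2, rfl⟩
  have hnormal_of : ∀ M' : Subgroup G, F ≤ M' → M' ≤ PP → (∀ b ∈ H, ∀ m ∈ M', b * m * b⁻¹ ∈ M') →
      M'.Normal := by
    intro M' hFM hMP hb
    constructor
    intro m hm g
    obtain ⟨a, ha, b, hb', rfl⟩ := hfac g
    have h1 := hb b hb' m hm
    have h2 : a * (b * m * b⁻¹) * a⁻¹ * (b * m * b⁻¹)⁻¹ ∈ F := hFcomm a ha _ (hMP h1)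
    have h3 : (a * b) * m * (a * b)⁻¹ = (a * (b * m * b⁻¹) * a⁻¹ * (b * m * b⁻¹)⁻¹) * (b * m * b⁻¹) := by
      group
    rw [h3]
    exact M'.mul_mem (hFM h2) h1
  -- maximal invariant subgroups
  let IsMax : Subgroup G → Prop := fun M => M.Normal ∧ F ≤ M ∧ M < PP ∧
    ∀ M' : Subgroup G, M'.Normal → M ≤ M' → M' ≤ PP → M' = M ∨ M' = PP
  -- Step 1: the index
  have hcardM : ∀ M, IsMax M → Nat.card PP = p * Nat.card M := by
    intro M hM
    haveI := hM.1
    exact card_eq_of_max h hp hPp hfac hPH hcardG hFle hnormal_of hM.2.1 hM.2.2.1 hM.2.2.2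
  -- Step 2, 3: the action modulo `F`
  have hactF : ∀ x y u : G, u ∈ PP →
      x ^ (p - 1) * u * (x ^ (p - 1))⁻¹ * u⁻¹ ∈ F ∧ ⁅x, y⁆ * u * (⁅x, y⁆)⁻¹ * u⁻¹ ∈ F := by
    intro x y u hu
    have hin1 : x ^ (p - 1) * u * (x ^ (p - 1))⁻¹ * u⁻¹ ∈ PP :=
      PP.mul_mem (hPn.conj_mem u hu _) (PP.inv_mem hu)
    have hin2 : ⁅x, y⁆ * u * (⁅x, y⁆)⁻¹ * u⁻¹ ∈ PP :=
      PP.mul_mem (hPn.conj_mem u hu _) (PP.inv_mem hu)
    constructor
    · apply mem_of_forall_max hPp hcopHP hF hnormal_of _ hin1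
      intro M hMn hFM hlt hmax
      haveI := hMn
      exact (conj_mem_of_max hp hlt.le (hcardM M ⟨hMn, hFM, hlt, hmax⟩) x y u hu).1
    · apply mem_of_forall_max hPp hcopHP hF hnormal_of _ hin2
      intro M hMn hFM hlt hmax
      haveI := hMn
      exact (conj_mem_of_max hp hlt.le (hcardM M ⟨hMn, hFM, hlt, hmax⟩) x y u hu).2
  -- Step 4: elements acting trivially modulo `F`
  let C : Subgroup G := (Subgroup.centralizer ((PP.map (QuotientGroup.mk' F) : Subgroup (G ⧸ F)) :
    Set (G ⧸ F))).comap (QuotientGroup.mk' F)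
  have hCmem : ∀ g : G, g ∈ C ↔ ∀ u ∈ PP, g * u * g⁻¹ * u⁻¹ ∈ F := by
    intro g
    constructor
    · intro hg u hu
      have h1 : (QuotientGroup.mk' F u) * (QuotientGroup.mk' F g) = (QuotientGroup.mk' F g) * (QuotientGroup.mk' F u) :=
        Subgroup.mem_centralizer_iff.mp hg _ ⟨u, hu, rfl⟩
      rw [← QuotientGroup.ker_mk' F, MonoidHom.mem_ker]
      simp only [map_mul, map_inv]
      rw [← h1]
      group
    · intro hg
      change QuotientGroup.mk' F g ∈ Subgroup.centralizer _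
      rw [Subgroup.mem_centralizer_iff]
      rintro _ ⟨u, hu, rfl⟩
      have h1 := hg u hu
      rw [← QuotientGroup.ker_mk' F, MonoidHom.mem_ker] at h1
      simp only [map_mul, map_inv] at h1
      have h2 : QuotientGroup.mk' F g * QuotientGroup.mk' F u = QuotientGroup.mk' F u * QuotientGroup.mk' F g := by
        rw [mul_inv_eq_one, mul_inv_eq_iff_eq_mul] at h1
        exact h1
      exact h2.symm
  have hPC : PP ≤ C := fun a ha => (hCmem a).mpr (fun u hu => hFcomm a ha u hu)
  have hAcent : H ⊓ C ≤ Subgroup.centralizer (PP : Set G) := by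
    apply Cfsg.Agent.S0029.result (H ⊓ C) PP
    · rw [Subgroup.normalizer_eq_top]
      exact le_top
    · apply Nat.Coprime.coprime_dvd_left (Subgroup.card_dvd_of_le inf_le_left)
      apply Nat.Coprime.coprime_dvd_right _ hcopHP
      exact Subgroup.card_subgroup_dvd_card _
    · intro a ha k hk
      exact (hCmem a).mp ha.2 k hk
  -- Step 5: the centre of `P`
  set Z : Subgroup G := (Subgroup.center ↥PP).map PP.subtype with hZ
  haveI hZn : Z.Normal := ConjAct.normal_of_characteristic_of_normal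
  have hZP : Z ≤ PP := by
    rintro _ ⟨x, -, rfl⟩
    exact x.2
  have hZcent : ∀ z ∈ Z, ∀ a ∈ PP, a * z * a⁻¹ = z := by
    rintro _ ⟨z, hz, rfl⟩ a ha
    have h1 := (Subgroup.mem_center_iff.mp hz) ⟨a, ha⟩
    have h2 : a * (z : G) = (z : G) * a := congrArg Subtype.val h1
    change a * (z : G) * a⁻¹ = z
    rw [h2]
    group
  have hCZ : ∀ c ∈ C, ∀ z ∈ Z, c * z * c⁻¹ = z := by
    intro c hc z hz
    obtain ⟨a, ha, b, hb, rfl⟩ := hfac c
    have hbC : b ∈ C := by
      have := C.mul_mem (C.inv_mem (hPC ha)) hc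
      simpa using this
    have h1 : b ∈ Subgroup.centralizer (PP : Set G) := hAcent ⟨hb, hbC⟩
    have h2 : z * b = b * z := Subgroup.mem_centralizer_iff.mp h1 z (hZP hz)
    have h3 : a * b * z * (a * b)⁻¹ = a * (b * z * b⁻¹) * a⁻¹ := by group
    rw [h3, ← h2]
    have h4 : z * b * b⁻¹ = z := by group
    rw [h4]
    exact hZcent z hz a ha
  haveI hPnt : Nontrivial PP := by
    apply (Subgroup.nontrivial_iff_ne_bot PP).mpr
    exact P.ne_bot_of_dvd_card hpG
  haveI : Nontrivial (Subgroup.center ↥PP) := hPp.center_nontrivial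
  have hZ1 : Z ≠ ⊥ := by
    intro hz
    obtain ⟨⟨x, hxc⟩, hx1⟩ := exists_ne (1 : Subgroup.center ↥PP)
    have hxZ : (x : G) ∈ Z := ⟨x, hxc, rfl⟩
    rw [hz, Subgroup.mem_bot] at hxZ
    apply hx1
    apply Subtype.ext
    apply Subtype.ext
    exact hxZ
  obtain ⟨N, hN, hNZ⟩ := exists_isMinNormal_le Z hZn hZ1
  refine ⟨N, hN.1, ?_⟩
  have hc := isMinNormal_comm hN
  obtain ⟨l, hl, hlexp⟩ := isMinNormal_exponent hN
  have hlp : l = p := by
    haveI : Fact l.Prime := ⟨hl⟩
    obtain ⟨v, hvN, hv1⟩ := (Subgroup.bot_or_exists_ne_one N).resolve_left hN.2.1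
    have h1 : orderOf v = l := orderOf_eq_prime (hlexp v hvN) hv1
    obtain ⟨k, hk⟩ := hPp ⟨v, hZP (hNZ hvN)⟩
    have h2 : v ^ p ^ k = 1 := by simpa using congrArg Subtype.val hk
    have h3 : l ∣ p ^ k := h1 ▸ orderOf_dvd_of_pow_eq_one h2
    exact (Nat.prime_dvd_prime_iff_eq hl hp).mp (hl.dvd_of_dvd_pow h3)
  subst hlp
  rw [card_eq_of_isMinNormal hN hc hlexp ?_ ?_]
  · exact hp
  · intro x v hv
    apply hCZ _ _ v (hNZ hv)
    rw [hCmem]
    intro u hu
    exact (hactF x x u hu).1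
  · intro x y v hv
    apply hCZ _ _ v (hNZ hv)
    rw [hCmem]
    intro u hu
    exact (hactF x y u hu).2

/-- **Huppert's theorem**. -/
theorem huppert : ∀ {G : Type*} [Group G] [Finite G], (∀ M : Subgroup G, IsCoatom M → M.index.Prime) →
    Cfsg.IsSupersolvable G := by
  intro G _ _ h
  induction hn : Nat.card G using Nat.strong_induction_on generalizing G with
  | _ n ih =>
    classical
    rcases subsingleton_or_nontrivial G with hs | hnt
    · exact isSupersolvable_of_subsingleton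
    · obtain ⟨N, hNn, hNp⟩ := exists_normal_prime h
      haveI := hNn
      haveI : Fact (Nat.card N).Prime := ⟨hNp⟩
      haveI : IsCyclic N := isCyclic_of_prime_card rfl
      apply isSupersolvable_of_cyclic_normal N
      have hlt : Nat.card (G ⧸ N) < n := by
        rw [← hn]
        have h1 := Cfsg.Agent.Lib.SolvStruct.Super3.card_quotient_mul N
        have h2 := hNp.one_lt
        have h3 : 0 < Nat.card (G ⧸ N) := Nat.card_pos
        nlinarith
      apply ih _ hlt _ rfl
      intro M hM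
      have hs : Function.Surjective (QuotientGroup.mk' N) := QuotientGroup.mk'_surjective N
      have h1 : IsCoatom (M.comap (QuotientGroup.mk' N)) := isCoatom_comap_of_surjective hs hM
      have h2 := h _ h1
      rwa [Subgroup.index_comap_of_surjective _ hs] at h2

end Cfsg.Agent.Lib.SolvStruct.Huppert
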