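import Cfsg.Agent.Lib.Subnormal.Basic

/-!
Families of subnormal subgroups closed under conjugation: some member outside a subfamily
normalizes the join of the subfamily (relative version).
-/

set_option autoImplicit false

namespace Cfsg.Agent.Lib.SolvStruct.Zip

open Subgroup Cfsg.Agent.Lib.Subnormal.Basic
open scoped Pointwise

variable {G : Type*} [Group G] [Finite G]

/-- The join of a family of subnormal subgroups is subnormal. -/
theorem SN_sSup {T : Subgroup G} {F : Set (Subgroup G)} (h : ∀ U ∈ F, SN U T) : SN (sSup F) T := by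
  have hfin : F.Finite := Set.toFinite F
  induction F, hfin using Set.Finite.induction_on with
  | empty =>
    rw [sSup_empty]
    exact SN.of_le_normalizer bot_le (by
      intro x _
      rw [Subgroup.mem_normalizer_iff]
      intro y
      simp only [Subgroup.mem_bot]
      constructor
      · rintro rfl; simp
      · intro hy
        have : y = x⁻¹ * (x * y * x⁻¹) * x := by group
        rw [this, hy]; simp)
  | @insert a s _ _ ih =>
    rw [sSup_insert]
    exact SN.sup (h a (Set.mem_insert a s)) (ih (fun U hU => h U (Set.mem_insert_of_mem a hU)))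

/-- If the conjugate by `t` of every member of `F` is in `F`, then `t` normalizes the join. -/
theorem mem_normalizer_sSup {F : Set (Subgroup G)} {t : G}
    (h : ∀ U ∈ F, MulAut.conj t • U ≤ sSup F) : t ∈ normalizer ((sSup F : Subgroup G) : Set G) := by
  apply mem_normalizer_of_conj_eq
  have hle : MulAut.conj t • sSup F ≤ sSup F := by
    have h1 : sSup F ≤ MulAut.conj t⁻¹ • sSup F := sSup_le (fun U hU => by
      have h2 := conj_mono (g := t⁻¹) (h U hU)
      rwa [conj_inv_conj] at h2)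
    have h2 := conj_mono (g := t) h1
    rwa [conj_conj_inv] at h2
  exact Subgroup.eq_of_le_of_card_ge hle (by rw [card_conj])

theorem exists_normalizes_aux {𝓢 𝓢₀ : Set (Subgroup G)} (hsub : 𝓢₀ ⊆ 𝓢) {K : Subgroup G}
    (hconj : ∀ U ∈ 𝓢, ∀ t ∈ K, MulAut.conj t • U ∈ 𝓢)
    {Y : Subgroup G} (hY : SN (sSup 𝓢₀) Y) (hYK : Y ≤ K)
    (hX : ∃ X ∈ 𝓢, X ∉ 𝓢₀ ∧ X ≤ Y) :
    ∃ X ∈ 𝓢, X ∉ 𝓢₀ ∧ X ≤ normalizer ((sSup 𝓢₀ : Subgroup G) : Set G) := by
  induction hY with
  | refl =>
    obtain ⟨X, hX1, hX2, hX3⟩ := hX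
    exact ⟨X, hX1, hX2, hX3.trans Subgroup.le_normalizer⟩
  | @tail Y₁ Y₂ hJ hN ih =>
    by_cases hc : ∃ X ∈ 𝓢, X ∉ 𝓢₀ ∧ X ≤ Y₁
    · exact ih (hN.1.trans hYK) hc
    · push Not at hc
      obtain ⟨X, hX1, hX2, hX3⟩ := hX
      refine ⟨X, hX1, hX2, ?_⟩
      intro t ht
      apply mem_normalizer_sSup
      intro U hU
      apply le_sSup
      by_contra hcon
      have ht' : t ∈ Y₂ := hX3 ht
      have hUY : U ≤ Y₁ := (le_sSup hU).trans (SN.le hJ)
      have h1 : MulAut.conj t • U ≤ Y₁ := by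
        have h2 := conj_mono (g := t) hUY
        rwa [conj_eq_of_mem_normalizer (hN.2 ht')] at h2
      exact hc _ (hconj U (hsub hU) t (hYK ht')) hcon h1

/-- **Relative form**: a family of subnormal subgroups of `K` closed under conjugation by `K`, and a
proper subfamily. -/
theorem exists_normalizes {𝓢 𝓢₀ : Set (Subgroup G)} {K : Subgroup G} (hS : ∀ U ∈ 𝓢, SN U K)
    (hconj : ∀ U ∈ 𝓢, ∀ t ∈ K, MulAut.conj t • U ∈ 𝓢) (h₀ : 𝓢₀ ⊂ 𝓢) :
    ∃ X ∈ 𝓢, X ∉ 𝓢₀ ∧ X ≤ normalizer ((sSup 𝓢₀ : Subgroup G) : Set G) := by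
  obtain ⟨X, hX1, hX2⟩ := Set.exists_of_ssubset h₀
  exact exists_normalizes_aux h₀.subset hconj
    (SN_sSup (fun U hU => hS U (h₀.subset hU))) le_rfl ⟨X, hX1, hX2, SN.le (hS X hX1)⟩

end Cfsg.Agent.Lib.SolvStruct.Zip
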